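import Cfsg.Agent.Screen.CosetEnum.Table
import Cfsg.Agent.Chars.Fi22O7.P6.Facts
import Cfsg.Agent.Chars.Fi22O7.P6.Steps
import Cfsg.Agent.Chars.Fi22O7.P6.Rows
import Cfsg.Agent.Chars.Fi22O7.P6.Cosets

/-!
# The table
-/

set_option autoImplicit false
set_option maxRecDepth 20000

namespace Cfsg.Agent.Chars.Fi22O7.P6

open Cfsg.Agent.Screen.CosetEnum

/-- The certificate and table. -/
def tbl : Tab where
  ng := 6
  nf := 186
  facts := factTree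
  steps := stepTree
  rels := [[0, 0],
    [1, 1],
    [2, 2],
    [3, 3],
    [4, 4],
    [5, 5],
    [1, 0, 1, 0, 1, 0],
    [2, 0, 2, 0],
    [3, 0, 3, 0],
    [4, 0, 4, 0],
    [5, 0, 5, 0],
    [2, 1, 2, 1, 2, 1],
    [3, 1, 3, 1],
    [4, 1, 4, 1],
    [5, 1, 5, 1],
    [3, 2, 3, 2, 3, 2],
    [4, 2, 4, 2],
    [5, 2, 5, 2],
    [4, 3, 4, 3, 4, 3],
    [5, 3, 5, 3],
    [5, 4, 5, 4, 5, 4]]
  subs := [[0],
    [1],
    [2],
    [3]]
  n := 42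
  tab := rowTree
  cos := cosetTree

end Cfsg.Agent.Chars.Fi22O7.P6
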